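import Mathlib
import Cfsg.Prelude.Def_KGroupFacts
import Cfsg.Agent.Lib.Helper66.TransferCentral
import Cfsg.Agent.Lib.Helper66.AltSixSevenUpper

set_option autoImplicit false

namespace Cfsg.Agent.Lib.Helper11.TitsM

/-- the 3-part of a central subgroup -/
def threePart {Γ : Type*} [Group Γ] (Z : Subgroup Γ) (hZ : Z ≤ Subgroup.center Γ) : Subgroup Γ where
  carrier := {x | x ∈ Z ∧ ∃ k : ℕ, x ^ (3 ^ k) = 1}
  one_mem' := ⟨one_mem _, 0, one_pow _⟩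
  mul_mem' := by
    rintro a b ⟨ha, k, hk⟩ ⟨hb, l, hl⟩
    refine ⟨mul_mem ha hb, k + l, ?_⟩
    have hcomm : Commute a b := (Subgroup.mem_center_iff.1 (hZ hb)) a
    rw [hcomm.mul_pow, pow_add, pow_mul, hk, one_pow, mul_comm (3 ^ k), pow_mul, hl, one_pow, one_mul]
  inv_mem' := by
    rintro a ⟨ha, k, hk⟩
    exact ⟨inv_mem ha, k, by rw [inv_pow, hk, inv_one]⟩

/-- [ASM] splitting the kernel into its 3-part and its 3'-part -/
theorem asm {G : Type} [Group G] [Finite G]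
    (h1 : ∀ (E : Type) [Group E] [Finite E] (σ : E →* G), Cfsg.IsStemExtension σ →
      (∀ ζ ∈ σ.ker, ζ ^ 3 = 1 → ζ = 1) → σ.ker = ⊥)
    (h2 : ∀ (E : Type) [Group E] [Finite E] (σ : E →* G), Cfsg.IsStemExtension σ →
      (∀ ζ ∈ σ.ker, ∃ k : ℕ, ζ ^ (3 ^ k) = 1) → σ.ker = ⊥) :
    Cfsg.HasCyclicSchurMultiplier G 1 := by
  rw [Cfsg.Agent.Lib.Helper66.hasCyclicSchurMultiplier_one_iff]
  intro Γ _ _ σ hσ
  have hT : threePart σ.ker hσ.2.1 ≤ σ.ker := fun x hx => hx.1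
  obtain ⟨hn, πb, hπb, hstem⟩ := Cfsg.Agent.Lib.Helper66.AltStem.stem_quotient σ hσ _ hT
  have hker : πb.ker = ⊥ := by
    apply h1 _ πb hstem
    intro ζ hζ hζ3
    obtain ⟨x, rfl⟩ := QuotientGroup.mk_surjective ζ
    have hx : x ∈ σ.ker := by rw [MonoidHom.mem_ker, ← hπb]; exact hζ
    rw [← QuotientGroup.mk_pow, QuotientGroup.eq_one_iff] at hζ3
    obtain ⟨-, k, hk⟩ := hζ3
    rw [QuotientGroup.eq_one_iff]
    exact ⟨hx, k + 1, by rw [pow_succ', pow_mul]; exact hk⟩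
  apply h2 Γ σ hσ
  intro ζ hζ
  have h3 : (QuotientGroup.mk ζ : Γ ⧸ threePart σ.ker hσ.2.1) ∈ πb.ker := by
    rw [MonoidHom.mem_ker, hπb]; exact hζ
  rw [hker, Subgroup.mem_bot, QuotientGroup.eq_one_iff] at h3
  exact h3.2

end Cfsg.Agent.Lib.Helper11.TitsM
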