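import Mathlib
import Cfsg.Prelude.Def_KGroupFacts
import Cfsg.Agent.Lib.Helper66.TransferCentral
import Cfsg.Agent.Lib.Helper66.AltSixSevenUpper
import Cfsg.Agent.Lib.Helper66.StemLemmas

set_option autoImplicit false

namespace Cfsg.Agent.Lib.Helper11.TitsM

open scoped commutatorElement

/-- a commutator inverted by a conjugation has square one -/
theorem sq_one_of_invert {E G : Type*} [Group E] [Group G] (σ : E →* G)
    (hc : σ.ker ≤ Subgroup.center E) (c d g : E) (hu : σ ⁅c, d⁆ = 1)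
    (h1 : σ (g * c * g⁻¹) = (σ c)⁻¹) (h2 : σ (g * d * g⁻¹) = σ d) : ⁅c, d⁆ ^ 2 = 1 := by
  set u := ⁅c, d⁆ with hudef
  have huc : ∀ t, t * u = u * t := Subgroup.mem_center_iff.1 (hc hu)
  have e0 : c * d * c⁻¹ = u * d := by rw [hudef, commutatorElement_def]; group
  have hk : c * (g * c * g⁻¹) ∈ σ.ker := by
    rw [MonoidHom.mem_ker, map_mul, h1, mul_inv_cancel]
  have hk' : d⁻¹ * (g * d * g⁻¹) ∈ σ.ker := by
    rw [MonoidHom.mem_ker, map_mul, h2, map_inv, inv_mul_cancel]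
  set k := c * (g * c * g⁻¹) with hkdef
  set k' := d⁻¹ * (g * d * g⁻¹) with hk'def
  have hkc : ∀ t, t * k = k * t := Subgroup.mem_center_iff.1 (hc hk)
  have hk'c : ∀ t, t * k' = k' * t := Subgroup.mem_center_iff.1 (hc hk')
  have ec : g * c * g⁻¹ = c⁻¹ * k := by rw [hkdef]; group
  have ed : g * d * g⁻¹ = d * k' := by rw [hk'def]; group
  have e1 : (g * c * g⁻¹) * (g * d * g⁻¹) * (g * c * g⁻¹)⁻¹ = u * (g * d * g⁻¹) := by
    have : (g * c * g⁻¹) * (g * d * g⁻¹) * (g * c * g⁻¹)⁻¹ = g * (c * d * c⁻¹) * g⁻¹ := by group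
    rw [this, e0]
    calc g * (u * d) * g⁻¹ = (g * u) * d * g⁻¹ := by group
      _ = u * (g * d * g⁻¹) := by rw [huc g]; group
  rw [ec, ed] at e1
  have e2 : c⁻¹ * k * (d * k') * (c⁻¹ * k)⁻¹ = c⁻¹ * d * c * k' := by
    calc c⁻¹ * k * (d * k') * (c⁻¹ * k)⁻¹ = c⁻¹ * (k * (d * k')) * k⁻¹ * c := by group
      _ = c⁻¹ * ((d * k') * k) * k⁻¹ * c := by rw [hkc (d * k')]
      _ = c⁻¹ * d * (k' * c) := by group
      _ = c⁻¹ * d * c * k' := by rw [← hk'c c]; group
  have e3 : c⁻¹ * d * c = u * d := by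
    have e5 : c⁻¹ * d * c * k' = (u * d) * k' := by rw [← e2, e1, mul_assoc]
    exact mul_right_cancel e5
  have e4 : d = u * u * d := by
    calc d = c * (c⁻¹ * d * c) * c⁻¹ := by group
      _ = (c * u) * d * c⁻¹ := by rw [e3]; group
      _ = u * (c * d * c⁻¹) := by rw [huc c]; group
      _ = u * u * d := by rw [e0]; group
  rw [pow_two]
  have : 1 * d = u * u * d := by rw [one_mul]; exact e4
  exact (mul_right_cancel this).symm

theorem eq_one_of_sq_of_three {E : Type*} [Group E] (u : E) (h2 : u ^ 2 = 1) (k : ℕ)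
    (h3 : u ^ (3 ^ k) = 1) : u = 1 := by
  have h1 : orderOf u ∣ 2 := orderOf_dvd_of_pow_eq_one h2
  have h4 : orderOf u ∣ 3 ^ k := orderOf_dvd_of_pow_eq_one h3
  have hcop : Nat.Coprime 2 (3 ^ k) := Nat.Coprime.pow_right k (by norm_num)
  have := Nat.eq_one_of_dvd_coprimes hcop h1 h4
  exact orderOf_eq_one_iff.1 this

/-- [P3] the 3-part: extraspecial Sylow 3-subgroup `R = ⟨x, y⟩` with two "torus" elements -/
theorem part3 {E G : Type*} [Group E] [Finite E] [Group G] (σ : E →* G) (hσ : Cfsg.IsStemExtension σ)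
    (h3 : ∀ ζ ∈ σ.ker, ∃ k : ℕ, ζ ^ (3 ^ k) = 1)
    (x y w h₁ h₂ : G) (hx : x ^ 3 = 1) (hy : y ^ 3 = 1) (hwd : w = x * y * x⁻¹ * y⁻¹) (hw : w ≠ 1)
    (hw1 : Commute x w) (hw2 : Commute y w)
    (h1x : h₁ * x * h₁⁻¹ = x⁻¹) (h1y : h₁ * y * h₁⁻¹ = y)
    (h2x : h₂ * x * h₂⁻¹ = x) (h2y : h₂ * y * h₂⁻¹ = y⁻¹)
    (R : Subgroup G) (hxR : x ∈ R) (hyR : y ∈ R)
    (hR : ∀ r ∈ R, ∃ i j k : ℕ, r = x ^ i * y ^ j * w ^ k)
    (hidx : Nat.Coprime 3 R.index) : σ.ker = ⊥ := by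
  have hc := hσ.2.1
  have hwc : w = ⁅x, y⁆ := by rw [hwd, commutatorElement_def]
  -- computations in `G`
  have G1 : h₁ * w * h₁⁻¹ = w⁻¹ := by
    have e1 : h₁ * w * h₁⁻¹ = x⁻¹ * w⁻¹ * x := by
      rw [hwc, conjugate_commutatorElement, h1x, h1y, commutatorElement_def, commutatorElement_def]
      group
    rw [e1, mul_assoc, (hw1.inv_right).symm.eq, inv_mul_cancel_left]
  have G2 : h₂ * w * h₂⁻¹ = w⁻¹ := by
    have e1 : h₂ * w * h₂⁻¹ = y⁻¹ * w⁻¹ * y := by
      rw [hwc, conjugate_commutatorElement, h2x, h2y, commutatorElement_def, commutatorElement_def]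
      group
    rw [e1, mul_assoc, (hw2.inv_right).symm.eq, inv_mul_cancel_left]
  obtain ⟨a, ha⟩ := hσ.1 x
  obtain ⟨b, hb⟩ := hσ.1 y
  obtain ⟨g1, hg1⟩ := hσ.1 h₁
  obtain ⟨g2, hg2⟩ := hσ.1 h₂
  have hσc : σ ⁅a, b⁆ = w := by rw [map_commutatorElement, ha, hb, hwc]
  have hcb : Commute ⁅a, b⁆ b := by
    have hu : σ ⁅⁅a, b⁆, b⁆ = 1 := by
      rw [map_commutatorElement, hσc, hb, commutatorElement_eq_one_iff_commute]
      exact hw2.symm
    have h2 := sq_one_of_invert σ hc ⁅a, b⁆ b g1 hu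
      (by rw [map_mul, map_mul, map_inv, hσc, hg1, G1])
      (by rw [map_mul, map_mul, map_inv, hb, hg1, h1y])
    obtain ⟨k, hk⟩ := h3 _ hu
    exact commutatorElement_eq_one_iff_commute.1 (eq_one_of_sq_of_three _ h2 k hk)
  have hca : Commute ⁅a, b⁆ a := by
    have hu : σ ⁅⁅a, b⁆, a⁆ = 1 := by
      rw [map_commutatorElement, hσc, ha, commutatorElement_eq_one_iff_commute]
      exact hw1.symm
    have h2 := sq_one_of_invert σ hc ⁅a, b⁆ a g2 hu
      (by rw [map_mul, map_mul, map_inv, hσc, hg2, G2])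
      (by rw [map_mul, map_mul, map_inv, ha, hg2, h2x])
    obtain ⟨k, hk⟩ := h3 _ hu
    exact commutatorElement_eq_one_iff_commute.1 (eq_one_of_sq_of_three _ h2 k hk)
  -- the subgroup `H`
  have haH : a ∈ R.comap σ := by rw [Subgroup.mem_comap, ha]; exact hxR
  have hbH : b ∈ R.comap σ := by rw [Subgroup.mem_comap, hb]; exact hyR
  let aH : R.comap σ := ⟨a, haH⟩
  let bH : R.comap σ := ⟨b, hbH⟩
  have hcoe : ((⁅aH, bH⁆ : R.comap σ) : E) = ⁅a, b⁆ := rfl
  let S : Set (R.comap σ) := {aH, bH} ∪ {z | (z : E) ∈ σ.ker}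
  have hS : Subgroup.closure S = ⊤ := by
    rw [eq_top_iff]
    intro g _
    obtain ⟨i, j, k, hijk⟩ := hR (σ g) g.2
    have haS : aH ∈ Subgroup.closure S := Subgroup.subset_closure (Or.inl (Or.inl rfl))
    have hbS : bH ∈ Subgroup.closure S := Subgroup.subset_closure (Or.inl (Or.inr rfl))
    have hcS : ⁅aH, bH⁆ ∈ Subgroup.closure S := by
      rw [commutatorElement_def]
      exact mul_mem (mul_mem (mul_mem haS hbS) (inv_mem haS)) (inv_mem hbS)
    have hz : (aH ^ i * bH ^ j * ⁅aH, bH⁆ ^ k)⁻¹ * g ∈ Subgroup.closure S := by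
      apply Subgroup.subset_closure
      right
      show (((aH ^ i * bH ^ j * ⁅aH, bH⁆ ^ k)⁻¹ * g : R.comap σ) : E) ∈ σ.ker
      rw [MonoidHom.mem_ker]
      simp only [Subgroup.coe_mul, Subgroup.coe_inv, Subgroup.coe_pow, hcoe, map_mul, map_inv, map_pow,
        hσc]
      show (σ a ^ i * σ b ^ j * w ^ k)⁻¹ * σ g = 1
      rw [ha, hb, hijk, inv_mul_cancel]
    have : g = (aH ^ i * bH ^ j * ⁅aH, bH⁆ ^ k) * ((aH ^ i * bH ^ j * ⁅aH, bH⁆ ^ k)⁻¹ * g) := by
      rw [mul_inv_cancel_left]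
    rw [this]
    exact mul_mem (mul_mem (mul_mem (pow_mem haS i) (pow_mem hbS j)) (pow_mem hcS k)) hz
  have hkerc : ∀ z : R.comap σ, (z : E) ∈ σ.ker → ∀ t : R.comap σ, t * z = z * t := by
    intro z hz t
    apply Subtype.ext
    exact Subgroup.mem_center_iff.1 (hc hz) t
  have hcen : ⁅aH, bH⁆ ∈ Subgroup.center (R.comap σ) := by
    have hle : Subgroup.closure S ≤ Subgroup.centralizer {⁅aH, bH⁆} := by
      rw [Subgroup.closure_le]
      rintro s hs
      rw [SetLike.mem_coe, Subgroup.mem_centralizer_iff]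
      rintro _ rfl
      rcases hs with (rfl | rfl) | hs
      · exact Subtype.ext hca.eq
      · exact Subtype.ext hcb.eq
      · exact hkerc s hs _
    rw [Subgroup.mem_center_iff]
    intro g
    have hg : g ∈ Subgroup.centralizer {⁅aH, bH⁆} := hle (by rw [hS]; trivial)
    exact ((Subgroup.mem_centralizer_iff.1 hg) _ rfl).symm
  have hc3 : ⁅aH, bH⁆ ^ 3 = 1 := by
    rw [← Cfsg.Agent.Lib.Helper66.commutatorElement_pow_left_of_central aH bH hcen 3,
      commutatorElement_eq_one_iff_commute]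
    have : ((aH ^ 3 : R.comap σ) : E) ∈ σ.ker := by
      rw [MonoidHom.mem_ker]
      show σ (a ^ 3) = 1
      rw [map_pow, ha, hx]
    exact (hkerc _ this bH).symm
  have hnorm : (Subgroup.zpowers ⁅aH, bH⁆).Normal := by
    constructor
    intro n hn g
    have : g * n * g⁻¹ = n := by
      obtain ⟨m, rfl⟩ := hn
      have h5 : ⁅aH, bH⁆ ^ m ∈ Subgroup.center (R.comap σ) := zpow_mem hcen m
      rw [Subgroup.mem_center_iff.1 h5 g, mul_inv_cancel_right]
    rw [this]; exact hn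
  have hcomm_le : commutator (R.comap σ) ≤ Subgroup.zpowers ⁅aH, bH⁆ := by
    apply Cfsg.Agent.Lib.Helper66.commutator_le_of_closure S hS
    intro s hs t ht
    rcases hs with (rfl | rfl) | hs
    · rcases ht with (rfl | rfl) | ht
      · rw [commutatorElement_self]; exact one_mem _
      · exact Subgroup.mem_zpowers _
      · rw [commutatorElement_eq_one_iff_commute.2 (hkerc t ht _)]; exact one_mem _
    · rcases ht with (rfl | rfl) | ht
      · rw [← commutatorElement_inv aH bH]; exact inv_mem (Subgroup.mem_zpowers _)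
      · rw [commutatorElement_self]; exact one_mem _
      · rw [commutatorElement_eq_one_iff_commute.2 (hkerc t ht _)]; exact one_mem _
    · rw [commutatorElement_eq_one_iff_commute.2 (hkerc s hs t).symm]; exact one_mem _
  have hw3 : w ^ 3 = 1 := by
    have := congrArg (fun t : R.comap σ => σ (t : E)) hc3
    simp only [Subgroup.coe_pow, hcoe, map_pow, hσc, Subgroup.coe_one, map_one] at this
    exact this
  have : Fact (Nat.Prime 3) := ⟨Nat.prime_three⟩
  have how : orderOf w = 3 := orderOf_eq_prime hw3 hw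
  have hcomm : ∀ X : (R.comap σ), X ∈ commutator (R.comap σ) → σ X = 1 → X = 1 := by
    intro X hX hX1
    obtain ⟨n, rfl⟩ := hcomm_le hX
    have h5 : w ^ n = 1 := by
      rw [← hX1]
      simp only [Subgroup.coe_zpow, hcoe, map_zpow, hσc]
    rw [← orderOf_dvd_iff_zpow_eq_one, how] at h5
    obtain ⟨m, rfl⟩ := h5
    have h6 : ⁅aH, bH⁆ ^ ((3 : ℕ) : ℤ) = 1 := by rw [zpow_natCast]; exact hc3
    show ⁅aH, bH⁆ ^ (((3 : ℕ) : ℤ) * m) = 1
    rw [zpow_mul, h6, one_zpow]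
  rw [eq_bot_iff]
  intro z hz
  rw [Subgroup.mem_bot]
  apply Cfsg.Agent.Lib.Helper66.stem_ker_eq_one_of_subgroup σ hσ R z hz _ hcomm
  obtain ⟨k, hk⟩ := h3 z hz
  have h7 : orderOf z ∣ 3 ^ k := orderOf_dvd_of_pow_eq_one hk
  exact Nat.Coprime.coprime_dvd_left h7 (Nat.Coprime.pow_left k hidx)

end Cfsg.Agent.Lib.Helper11.TitsM
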