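import Mathlib
import Cfsg.Prelude.Def_KGroupFacts
import Cfsg.Agent.Lib.Helper66.TransferCentral
import Cfsg.Agent.Lib.Helper66.AltSixSevenUpper

set_option autoImplicit false

namespace Cfsg.Agent.Lib.Helper11.TitsM

/-- [U] uniqueness of lifts of order 3 -/
theorem lift_unique {E G : Type*} [Group E] [Group G] (σ : E →* G) (hc : σ.ker ≤ Subgroup.center E)
    (htor : ∀ ζ ∈ σ.ker, ζ ^ 3 = 1 → ζ = 1) {a b : E} (ha : a ^ 3 = 1) (hb : b ^ 3 = 1)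
    (hab : σ a = σ b) : a = b := by
  have hk : a⁻¹ * b ∈ σ.ker := by
    rw [MonoidHom.mem_ker, map_mul, map_inv, hab, inv_mul_cancel]
  have hcomm : Commute a (a⁻¹ * b) := (Subgroup.mem_center_iff.1 (hc hk)) a
  have h3 : (a⁻¹ * b) ^ 3 = 1 := by
    have e : (a * (a⁻¹ * b)) ^ 3 = a ^ 3 * (a⁻¹ * b) ^ 3 := hcomm.mul_pow 3
    rw [mul_inv_cancel_left, hb, ha, one_mul] at e
    exact e.symm
  have := htor _ hk h3
  exact (inv_mul_eq_one.1 this)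

/-- [L] existence of lifts of order 3 -/
theorem exists_lift {E G : Type*} [Group E] [Finite E] [Group G] (σ : E →* G) (hs : Function.Surjective σ)
    (hc : σ.ker ≤ Subgroup.center E)
    (htor : ∀ ζ ∈ σ.ker, ζ ^ 3 = 1 → ζ = 1) (t : G) (ht : t ^ 3 = 1) : ∃ a : E, σ a = t ∧ a ^ 3 = 1 := by
  obtain ⟨e, rfl⟩ := hs t
  have he : e ^ 3 ∈ σ.ker := by rw [MonoidHom.mem_ker, map_pow, ht]
  obtain ⟨ζ, hζ, hζ3⟩ := Cfsg.Agent.Lib.Helper66.AltStem.exists_root σ.ker hc 3 htor _ he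
  refine ⟨e * ζ⁻¹, ?_, ?_⟩
  · rw [map_mul, map_inv, MonoidHom.mem_ker.1 hζ, inv_one, mul_one]
  · have hcomm : Commute e ζ⁻¹ := (Subgroup.mem_center_iff.1 (hc (inv_mem hζ))) e
    rw [hcomm.mul_pow, inv_pow, hζ3, mul_inv_cancel]

/-- [B] a commutator relation `a⁻¹ b⁻¹ a b = c` between lifts of order 3 -/
theorem comm_rel {E G : Type*} [Group E] [Group G] (σ : E →* G) (hc : σ.ker ≤ Subgroup.center E)
    (htor : ∀ ζ ∈ σ.ker, ζ ^ 3 = 1 → ζ = 1) {a b c : E} (ha : a ^ 3 = 1) (hc3 : c ^ 3 = 1)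
    (hcomm : Commute (σ a) (σ c)) (h : (σ a)⁻¹ * (σ b)⁻¹ * σ a * σ b = σ c) : a⁻¹ * b⁻¹ * a * b = c := by
  have h1 : (a⁻¹) ^ 3 = 1 := by rw [inv_pow, ha, inv_one]
  have h2 : (b⁻¹ * a * b) ^ 3 = 1 := by
    have : b⁻¹ * a * b = b⁻¹ * a * (b⁻¹)⁻¹ := by rw [inv_inv]
    rw [this, conj_pow, ha]; simp
  have hs2 : σ (b⁻¹ * a * b) = σ a * σ c := by
    rw [← h]; simp [mul_assoc]
  have hcc : Commute (σ (b⁻¹ * a * b)) (σ a⁻¹) := by
    rw [hs2, map_inv]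
    exact ((Commute.refl (σ a)).mul_left hcomm.symm).inv_right
  have h3 : (b⁻¹ * a * b) * a⁻¹ * (b⁻¹ * a * b)⁻¹ = a⁻¹ := by
    apply lift_unique σ hc htor _ h1
    · rw [map_mul, map_mul, map_inv (f := σ) (b⁻¹ * a * b), hcc.eq, mul_assoc, mul_inv_cancel, mul_one]
    · rw [conj_pow, h1]; simp
  have hcm : Commute a⁻¹ (b⁻¹ * a * b) := by
    have : (b⁻¹ * a * b) * a⁻¹ = a⁻¹ * (b⁻¹ * a * b) := by
      rw [← mul_inv_eq_iff_eq_mul]; exact h3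
    exact this.symm
  have h4 : a⁻¹ * (b⁻¹ * a * b) = c := by
    apply lift_unique σ hc htor _ hc3
    · rw [map_mul, hs2, map_inv, inv_mul_cancel_left]
    · rw [hcm.mul_pow, h1, h2, one_mul]
  rw [← h4]; simp only [mul_assoc]

end Cfsg.Agent.Lib.Helper11.TitsM
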